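import Cfsg.Agent.H779.G2.Stmts
import Cfsg.Agent.H650.GU.Syl

/-!
# S5211, [G2-SYL]: the Sylow `p`-subgroups of `G₂(K)` are isomorphic to `GU K`

`iso` : the group `H650.G.GU K` of helper650 is isomorphic to `H779.G2.GU K`, by
`(r, b, c, d, e, z) ↦ (r, e, d, -c, b, -z - 3cd - be)`, that is `x₁(t) ↦ x_α(t)`, `x₆(t) ↦ x_β(t)`, `x₅(t) ↦ x_{α+β}(t)`,
`x₃(t) ↦ x_{2α+β}(-t)`, `x₂(t) ↦ x_{3α+β}(t)`, `x₄(t) ↦ x_{3α+2β}(-t)`.
-/

set_option autoImplicit false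

namespace Cfsg.Agent.H694.GT

open Cfsg.Agent.H779.G2

universe u

/-- the isomorphism between the two unipotent groups of type `G₂` -/
def iso (K : Type u) [Field K] : Cfsg.Agent.H650.G.GU K ≃* GU K where
  toFun x := ⟨x.r, x.e, x.d, -x.c, x.b, -x.z - 3 * x.c * x.d - x.b * x.e⟩
  invFun y := ⟨y.a, y.e, -y.d, y.c, y.b, -y.f + 3 * y.d * y.c - y.e * y.b⟩
  left_inv x := by
    ext <;> simp only <;> ring
  right_inv y := by
    ext <;> simp only <;> ring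
  map_mul' x y := by
    ext
    · rfl
    · rfl
    · simp only [GU.mul_c, Cfsg.Agent.H650.G.GU.mul_d]; ring
    · simp only [GU.mul_d, Cfsg.Agent.H650.G.GU.mul_c]; ring
    · simp only [GU.mul_e, Cfsg.Agent.H650.G.GU.mul_b]; ring
    · simp only [GU.mul_f, Cfsg.Agent.H650.G.GU.mul_z, Cfsg.Agent.H650.G.GU.mul_b,
        Cfsg.Agent.H650.G.GU.mul_c, Cfsg.Agent.H650.G.GU.mul_d, Cfsg.Agent.H650.G.GU.mul_e]
      ring

theorem iso_x1 {K : Type u} [Field K] (t : K) : iso K (Cfsg.Agent.H650.G.GU.x1 t) = ⟨t, 0, 0, 0, 0, 0⟩ := by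
  ext <;> simp [iso, Cfsg.Agent.H650.G.GU.x1]

theorem iso_x2 {K : Type u} [Field K] (t : K) : iso K (Cfsg.Agent.H650.G.GU.x2 t) = ⟨0, 0, 0, 0, t, 0⟩ := by
  ext <;> simp [iso, Cfsg.Agent.H650.G.GU.x2]

theorem iso_x3 {K : Type u} [Field K] (t : K) : iso K (Cfsg.Agent.H650.G.GU.x3 t) = ⟨0, 0, 0, -t, 0, 0⟩ := by
  ext <;> simp [iso, Cfsg.Agent.H650.G.GU.x3]

theorem iso_x4 {K : Type u} [Field K] (t : K) : iso K (Cfsg.Agent.H650.G.GU.x4 t) = ⟨0, 0, 0, 0, 0, -t⟩ := by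
  ext <;> simp [iso, Cfsg.Agent.H650.G.GU.x4]

theorem iso_x5 {K : Type u} [Field K] (t : K) : iso K (Cfsg.Agent.H650.G.GU.x5 t) = ⟨0, 0, t, 0, 0, 0⟩ := by
  ext <;> simp [iso, Cfsg.Agent.H650.G.GU.x5]

theorem iso_x6 {K : Type u} [Field K] (t : K) : iso K (Cfsg.Agent.H650.G.GU.x6 t) = ⟨0, t, 0, 0, 0, 0⟩ := by
  ext <;> simp [iso, Cfsg.Agent.H650.G.GU.x6]

/-- **[G2-SYL]** -/
theorem stSyl : StSyl.{u} := by
  intro K _ p n _ h T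
  have := h.fin
  have := h.char
  obtain ⟨e⟩ := Cfsg.Agent.H650.G.exists_equiv (F := K) (p := p) T
  exact ⟨e.trans (iso K)⟩

end Cfsg.Agent.H694.GT
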